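import Cfsg.Agent.Lib.SporOut.HS
import Cfsg.Agent.Lib.SchurMult.Sylow
import Cfsg.Agent.Lib.SchurMult.MathieuCommon
import Cfsg.Agent.Lib.SchurMult.PermEngine
import Cfsg.Agent.Lib.SchurMult.SpinLift
import Cfsg.Agent.Lib.SchurMult.CyclicFromElements
import Cfsg.Agent.Lib.SchurMult.HigmanSims.Cert

/-!
The multiplier of the Higman–Sims group has order two.
-/

set_option autoImplicit false
set_option maxRecDepth 100000

namespace Cfsg.Agent.Lib.SchurMult.HigmanSims

open Cfsg Cfsg.Agent.Lib Cfsg.Agent.Lib.Leech Cfsg.Agent.Lib.SporOut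
open scoped Pointwise

theorem hasSchurMultiplier_congr {G H : Type} [Group G] [Group H] (e : G ≃* H) {A : Type} [CommGroup A]
    (h : Cfsg.HasSchurMultiplier G A) : Cfsg.HasSchurMultiplier H A := by
  obtain ⟨⟨Γ, i1, i2, σ, hσ, ⟨i⟩⟩, huniv⟩ := h
  have hk : (e.toMonoidHom.comp σ).ker = σ.ker := by ext x; simp
  refine ⟨⟨Γ, i1, i2, e.toMonoidHom.comp σ, ⟨e.surjective.comp hσ.1, hk ▸ hσ.2.1, hk ▸ hσ.2.2⟩,
    ⟨(MulEquiv.subgroupCongr hk).trans i⟩⟩, fun Δ _ _ τ hτ => ?_⟩
  have hk' : (e.symm.toMonoidHom.comp τ).ker = τ.ker := by ext x; simp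
  obtain ⟨π, hπ⟩ := huniv Δ _ ⟨e.symm.surjective.comp hτ.1, hk' ▸ hτ.2.1, hk' ▸ hτ.2.2⟩
  exact ⟨(MulEquiv.subgroupCongr hk').toMonoidHom.comp π, (MulEquiv.subgroupCongr hk').surjective.comp hπ⟩

theorem exists_perm_model : ∃ R : Subgroup (Equiv.Perm (Fin hsCert.n)),
    Nonempty (↥Cfsg.Spor.HS ≃* ↥R) ∧ Nat.card R = 44352000 ∧ IsSimpleGroup R ∧
      PermOut.Chain R hsCert.w hsCert.bsX hsCert.tsX := by
  haveI := hs_simple.1
  obtain ⟨φ, hφ, hmem⟩ := exists_orbit_rep (gs := RankOrb.hsGens) (T := RankOrb.hsPtTree)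
    (start := RankOrb.fourFour) (n := hsCert.n) (w := hsCert.w) (perms := hsCertGens) hs_orbit_ok hs_perms
    hs_nontrivial (pairStab fourNeg)
    (fun g hg => by
      rw [pairStab_fourNeg]
      exact gens_fix_pair fix_checks.1 (funext vec_eqs.1) (funext vec_eqs.2.1) (by rw [vFive_shape.1]; norm_num)
        (by rw [partner_facts.1]; norm_num) g hg)
    (funext vec_eqs.2.2) (by rw [rep_facts.1.1]; norm_num) (hsPts vFive fivePartner) hs_ncard rep_facts.1
    (fun k hk y hy => by
      rw [pairStab_fourNeg] at hk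
      have h := (smul_hsPts (v := vFive) (w := fivePartner) k).2 hy
      rwa [MulAction.mem_stabilizer_iff.1 hk.1, MulAction.mem_stabilizer_iff.1 hk.2] at h)
  let e : ↥Cfsg.Spor.HS ≃* ↥φ.range := hsEquiv.symm.trans (MonoidHom.ofInjective hφ)
  have hcard : Nat.card φ.range = 44352000 :=
    (Nat.card_congr (MonoidHom.ofInjective hφ).toEquiv).symm.trans hs_simple.2
  haveI : Nontrivial ↥φ.range := (MonoidHom.ofInjective hφ).symm.toEquiv.nontrivial
  exact ⟨φ.range, ⟨e⟩, hcard,
    IsSimpleGroup.isSimpleGroup_of_surjective (MonoidHom.ofInjective hφ).toMonoidHom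
      (MonoidHom.ofInjective hφ).surjective,
    (hs_checks.chains hmem (hcard ▸ hs_order)).1⟩

/-- The product of transversal entries at given positions. -/
def pickT (d : List ℕ) : List ℕ :=
  (List.range 7).map fun j => (hsCert.tsX.getD j []).getD (d.getD j 0) 0

/-- A code is one of the certified members. -/
def isMember (c : ℕ) : Bool := decomp.any fun e => e.1 == c

theorem decomp_ok : ((hsCert.tsX.length == 7) && (decomp.all fun e =>
    PermOut.okP hsCert.n hsCert.w e.1 &&
      ((List.range 7).all fun j => Nat.blt (e.2.getD j 0) (hsCert.tsX.getD j []).length) &&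
      PermEngine.same hsCert.n hsCert.w [e.1] (pickT e.2))) = true := by decide +kernel

theorem allTwo : dataTwo.allOK = true := by decide +kernel

theorem allThree : dataThree.allOK = true := by decide +kernel

theorem allFive : dataFive.allOK = true := by decide +kernel

theorem groupTwo :
    PermEngine.groupOK hsCert.n hsCert.w dataTwo gensTwo conjTwo sortedTwo isMember = true := by
  decide +kernel

theorem groupThree :
    PermEngine.groupOK hsCert.n hsCert.w dataThree gensThree conjThree sortedThree isMember = true := by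
  decide +kernel

theorem groupFive :
    PermEngine.groupOK hsCert.n hsCert.w dataFive gensFive conjFive sortedFive isMember = true := by
  decide +kernel

theorem freeInv_ok : isMember freeInv = true ∧
    ((List.range hsCert.n).all fun i => !(Nat.beq (PermOut.im hsCert.w freeInv i) i) &&
      Nat.beq (PermOut.im hsCert.w freeInv (PermOut.im hsCert.w freeInv i)) i) = true := by
  refine ⟨?_, ?_⟩ <;> decide +kernel

theorem member_spec {R : Subgroup (Equiv.Perm (Fin hsCert.n))}
    (C : PermOut.Chain R hsCert.w hsCert.bsX hsCert.tsX) (c : ℕ) (h : isMember c = true) :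
    PermOut.perm hsCert.n hsCert.w c ∈ R ∧ PermOut.okP hsCert.n hsCert.w c = true := by
  obtain ⟨e, he, hc⟩ := List.any_eq_true.1 h
  rw [beq_iff_eq] at hc
  subst hc
  have hall := decomp_ok
  rw [Bool.and_eq_true, beq_iff_eq, List.all_eq_true] at hall
  obtain ⟨hlen, hall⟩ := hall
  have hok := hall e he
  simp only [Bool.and_eq_true, List.all_eq_true, List.mem_range, Nat.blt_eq] at hok
  obtain ⟨⟨h1, h2⟩, h3⟩ := hok
  refine ⟨?_, h1⟩
  have hp : ∀ q ∈ pickT e.2, PermOut.okP hsCert.n hsCert.w q = true ∧
      PermOut.perm hsCert.n hsCert.w q ∈ R := by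
    intro q hq
    obtain ⟨j, hj, rfl⟩ := List.mem_map.1 hq
    rw [List.mem_range] at hj
    have hl := h2 j hj
    refine C.mem (hsCert.tsX.getD j []) ?_ _ ?_
    · rw [List.getD_eq_getElem _ _ (by omega)]; exact List.getElem_mem _
    · rw [List.getD_eq_getElem _ _ hl]; exact List.getElem_mem _
  have := PermEngine.same_spec (l := [e.1]) (m := pickT e.2) (by simpa using h1) (fun q hq => (hp q hq).1) h3
  rw [PermOut.perm_eq_prodP, this]
  refine list_prod_mem fun x hx => ?_
  obtain ⟨q, hq, rfl⟩ := List.mem_map.1 hx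
  exact (hp q hq).2

theorem hasTwo : Cfsg.HasCyclicSchurMultiplier ↥Cfsg.Spor.HS 2 := by
  obtain ⟨R, ⟨e⟩, hcard, hs, C⟩ := exists_perm_model
  haveI := hs
  refine hasSchurMultiplier_congr e.symm (hasCyclic_of_elements ?_ ?_)
  · intro Δ _ _ τ hτ
    refine (Nat.dvd_iff_prime_pow_dvd_dvd _ _).2 fun r k hr hk => ?_
    haveI := Fact.mk hr
    have htest := fun q h => member_spec C q h
    by_cases h2 : r = 2
    · subst h2
      exact PermEngine.bound (p := 2) htest hτ rfl allTwo groupTwo
        (Mathieu.factorization_of (r := 86625) Nat.prime_two (by rw [hcard]; rfl) (by decide)) hk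
    by_cases h3 : r = 3
    · subst h3
      exact (PermEngine.bound (p := 3) htest hτ rfl allThree groupThree
        (Mathieu.factorization_of (r := 4928000) Nat.prime_three (by rw [hcard]; rfl) (by decide)) hk).trans
        (one_dvd _)
    by_cases h5 : r = 5
    · subst h5
      exact (PermEngine.bound (p := 5) htest hτ rfl allFive groupFive
        (Mathieu.factorization_of (r := 354816) hr (by rw [hcard]; rfl) (by decide)) hk).trans
        (one_dvd _)
    rcases Nat.eq_zero_or_pos k with rfl | hk0
    · simp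
    exfalso
    refine SchurMult.not_dvd_ker_of_sq hτ ?_ ((dvd_pow_self r hk0.ne').trans hk)
    intro hd
    rw [hcard, show (44352000 : ℕ) = (2 ^ 9 * 3 ^ 2 * 5 ^ 3) * (7 * 11) by norm_num] at hd
    have hco : Nat.Coprime (r ^ 2) (2 ^ 9 * 3 ^ 2 * 5 ^ 3) := by
      refine ((Nat.Coprime.mul_right ?_ ?_).mul_right ?_)
      · exact ((Nat.coprime_primes hr Nat.prime_two).2 h2).pow 2 9
      · exact ((Nat.coprime_primes hr Nat.prime_three).2 h3).pow 2 2
      · exact ((Nat.coprime_primes hr (by norm_num)).2 h5).pow 2 3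
    have h := hco.dvd_of_dvd_mul_left hd
    have hle : r ≤ 8 := by
      by_contra hlt
      have := Nat.le_of_dvd (by norm_num) h
      nlinarith
    interval_cases r <;> norm_num at *
  · intro p k hp hk
    have hperf : commutator R = ⊤ := by
      refine ((Subgroup.Normal.eq_bot_or_eq_top (inferInstance : (commutator R).Normal)).resolve_left fun hb => ?_)
      letI : CommGroup R := { (inferInstance : Group R) with
        mul_comm := fun a b => commutatorElement_eq_one_iff_mul_comm.1 (by
          have := Subgroup.commutator_mem_commutator (Subgroup.mem_top a) (Subgroup.mem_top b)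
          rw [← commutator_def, hb] at this
          exact Subgroup.mem_bot.1 this) }
      have := IsSimpleGroup.prime_card (α := R)
      rw [hcard] at this
      exact absurd this (by norm_num)
    obtain ⟨hm, hf⟩ := freeInv_ok
    obtain ⟨hmem, hok⟩ := member_spec C freeInv hm
    simp only [List.all_eq_true, List.mem_range, Bool.and_eq_true, Bool.not_eq_true'] at hf
    set g := PermOut.perm hsCert.n hsCert.w freeInv with hg
    have hgg : g * g = 1 := Equiv.ext fun i => Fin.ext (by
      rw [Equiv.Perm.mul_apply, Equiv.Perm.one_apply, hg, PermOut.perm_val hok, PermOut.perm_val hok]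
      exact Nat.eq_of_beq_eq_true (hf i i.2).2)
    have hsupp : g.support = Finset.univ := Finset.eq_univ_of_forall fun i => Equiv.Perm.mem_support.2 fun e => by
      have := congrArg Fin.val e
      rw [hg, PermOut.perm_val hok] at this
      exact absurd ((hf i i.2).1) (by rw [this, Nat.beq_refl]; simp)
    obtain ⟨Δ, i1, i2, τ, hτ, x, hx, ho⟩ := SpinLift.exists_stem (H := R) hperf
      (show Even hsCert.n from ⟨50, rfl⟩) R.subtype (h := ⟨g, hmem⟩) (Subtype.ext hgg) (k := 50)
      (by show g.support.card = 2 * 50; rw [hsupp, Finset.card_univ, Fintype.card_fin]; rfl) ⟨637, rfl⟩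
    exact ⟨Δ, i1, i2, τ, hτ, x, hx, ho.symm ▸ hk⟩

end Cfsg.Agent.Lib.SchurMult.HigmanSims
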